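import Mathlib

/-!
# Counting nilpotent matrices over a finite field (Fine–Herstein), definitions

Used for S2315.  `nilCount F k` is the number of nilpotent `k × k` matrices, `X F k l` is the set
of matrices indexed by `Fin k ⊕ Fin l` that are conjugate to a block diagonal matrix
`diag(N, B)` with `N` nilpotent of size `k` and `B` invertible of size `l`.
-/

set_option autoImplicit false

namespace Cfsg.Agent.Lib.Helper97.Nil

open Matrix

/-- number of nilpotent `k × k` matrices -/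
noncomputable def nilCount (F : Type*) [Field F] (k : ℕ) : ℕ :=
  Nat.card {A : Matrix (Fin k) (Fin k) F // IsNilpotent A}

/-- order of `GL_k(F)` -/
noncomputable def glCount (F : Type*) [Field F] (k : ℕ) : ℕ :=
  Nat.card (GL (Fin k) F)

/-- the conjugate `g * diag(N, B) * g⁻¹` -/
noncomputable def blk {F : Type*} [Field F] {k l : ℕ} (g : GL (Fin k ⊕ Fin l) F)
    (N : Matrix (Fin k) (Fin k) F) (B : GL (Fin l) F) :
    Matrix (Fin k ⊕ Fin l) (Fin k ⊕ Fin l) F :=
  (g : Matrix (Fin k ⊕ Fin l) (Fin k ⊕ Fin l) F) *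
    Matrix.fromBlocks N 0 0 (B : Matrix (Fin l) (Fin l) F) *
    ((g⁻¹ : GL (Fin k ⊕ Fin l) F) : Matrix (Fin k ⊕ Fin l) (Fin k ⊕ Fin l) F)

/-- matrices of "Fitting type" `(k, l)` -/
def X (F : Type*) [Field F] (k l : ℕ) : Set (Matrix (Fin k ⊕ Fin l) (Fin k ⊕ Fin l) F) :=
  {A | ∃ (g : GL (Fin k ⊕ Fin l) F) (N : Matrix (Fin k) (Fin k) F) (B : GL (Fin l) F),
    IsNilpotent N ∧ A = blk g N B}

end Cfsg.Agent.Lib.Helper97.Nil
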