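import Mathlib
import Cfsg.Agent.Lib.Helper97.Nil.Defs

set_option autoImplicit false

namespace Cfsg.Agent.Lib.Helper97.Nil

open Matrix

variable {F : Type*} [Field F]

/-- block diagonal embedding -/
def diagGL {k l : ℕ} (a : GL (Fin k) F) (d : GL (Fin l) F) : GL (Fin k ⊕ Fin l) F :=
  ⟨Matrix.fromBlocks (a : Matrix (Fin k) (Fin k) F) 0 0 (d : Matrix (Fin l) (Fin l) F),
   Matrix.fromBlocks ((a⁻¹ : GL (Fin k) F) : Matrix (Fin k) (Fin k) F) 0 0
     ((d⁻¹ : GL (Fin l) F) : Matrix (Fin l) (Fin l) F),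
   by simp [Matrix.fromBlocks_multiply], by simp [Matrix.fromBlocks_multiply]⟩

theorem diagGL_injective {k l : ℕ} {a a' : GL (Fin k) F} {d d' : GL (Fin l) F}
    (h : diagGL a d = diagGL a' d') : a = a' ∧ d = d' := by
  have h1 : Matrix.fromBlocks (a : Matrix (Fin k) (Fin k) F) 0 0 (d : Matrix (Fin l) (Fin l) F) =
      Matrix.fromBlocks (a' : Matrix (Fin k) (Fin k) F) 0 0 (d' : Matrix (Fin l) (Fin l) F) :=
    congrArg Units.val h
  rw [Matrix.fromBlocks_inj] at h1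
  exact ⟨Units.ext h1.1, Units.ext h1.2.2.2⟩

theorem intertwine_zero_right {k l : ℕ} {N₀ : Matrix (Fin k) (Fin k) F} (hN₀ : IsNilpotent N₀)
    (B : GL (Fin l) F) (b : Matrix (Fin k) (Fin l) F)
    (h : b * (B : Matrix (Fin l) (Fin l) F) = N₀ * b) : b = 0 := by
  obtain ⟨m, hm⟩ := hN₀
  have h1 : ∀ j : ℕ, b * (B : Matrix (Fin l) (Fin l) F) ^ j = N₀ ^ j * b := by
    intro j
    induction j with
    | zero => simp
    | succ j ih => rw [pow_succ, ← Matrix.mul_assoc, ih, Matrix.mul_assoc, h, ← Matrix.mul_assoc,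
        ← pow_succ]
  have h2 := h1 m
  rw [hm, Matrix.zero_mul, ← Units.val_pow_eq_pow_val] at h2
  have h3 : b * ((B ^ m : GL (Fin l) F) : Matrix (Fin l) (Fin l) F) *
      (((B ^ m)⁻¹ : GL (Fin l) F) : Matrix (Fin l) (Fin l) F) = 0 := by
    rw [h2, Matrix.zero_mul]
  rwa [Matrix.mul_assoc, Units.mul_inv, Matrix.mul_one] at h3

theorem intertwine_zero_left {k l : ℕ} {N : Matrix (Fin k) (Fin k) F} (hN : IsNilpotent N)
    (B₀ : GL (Fin l) F) (c : Matrix (Fin l) (Fin k) F)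
    (h : c * N = (B₀ : Matrix (Fin l) (Fin l) F) * c) : c = 0 := by
  obtain ⟨m, hm⟩ := hN
  have h1 : ∀ j : ℕ, c * N ^ j = (B₀ : Matrix (Fin l) (Fin l) F) ^ j * c := by
    intro j
    induction j with
    | zero => simp
    | succ j ih => rw [pow_succ, ← Matrix.mul_assoc, ih, Matrix.mul_assoc, h, ← Matrix.mul_assoc,
        ← pow_succ]
  have h2 := h1 m
  rw [hm, Matrix.mul_zero, ← Units.val_pow_eq_pow_val] at h2
  have h3 : (((B₀ ^ m)⁻¹ : GL (Fin l) F) : Matrix (Fin l) (Fin l) F) *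
      (((B₀ ^ m : GL (Fin l) F) : Matrix (Fin l) (Fin l) F) * c) = 0 := by
    rw [← h2, Matrix.mul_zero]
  rwa [← Matrix.mul_assoc, Units.inv_mul, Matrix.one_mul] at h3

/-- the key lemma: an intertwiner of two Fitting forms is block diagonal -/
theorem intertwine_diag {k l : ℕ} {N N₀ : Matrix (Fin k) (Fin k) F} (hN : IsNilpotent N)
    (hN₀ : IsNilpotent N₀) (B B₀ : GL (Fin l) F) (h : GL (Fin k ⊕ Fin l) F)
    (hh : (h : Matrix (Fin k ⊕ Fin l) (Fin k ⊕ Fin l) F) *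
        Matrix.fromBlocks N 0 0 (B : Matrix (Fin l) (Fin l) F) =
      Matrix.fromBlocks N₀ 0 0 (B₀ : Matrix (Fin l) (Fin l) F) *
        (h : Matrix (Fin k ⊕ Fin l) (Fin k ⊕ Fin l) F)) :
    ∃ (a : GL (Fin k) F) (d : GL (Fin l) F), h = diagGL a d ∧
      (a : Matrix (Fin k) (Fin k) F) * N = N₀ * (a : Matrix (Fin k) (Fin k) F) ∧
      d * B = B₀ * d := by
  set M := (h : Matrix (Fin k ⊕ Fin l) (Fin k ⊕ Fin l) F) with hM
  have hMb : M = Matrix.fromBlocks M.toBlocks₁₁ M.toBlocks₁₂ M.toBlocks₂₁ M.toBlocks₂₂ :=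
    (Matrix.fromBlocks_toBlocks M).symm
  rw [hMb, Matrix.fromBlocks_multiply, Matrix.fromBlocks_multiply, Matrix.fromBlocks_inj] at hh
  simp only [Matrix.mul_zero, Matrix.zero_mul, add_zero, zero_add] at hh
  obtain ⟨h11, h12, h21, h22⟩ := hh
  have hb : M.toBlocks₁₂ = 0 := intertwine_zero_right hN₀ B _ h12
  have hc : M.toBlocks₂₁ = 0 := intertwine_zero_left hN B₀ _ h21
  rw [hb, hc] at hMb
  have hdet : M.det ≠ 0 := by
    have := (Matrix.isUnit_iff_isUnit_det _).mp h.isUnit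
    exact this.ne_zero
  rw [hMb, Matrix.det_fromBlocks_zero₂₁] at hdet
  have ha : M.toBlocks₁₁.det ≠ 0 := left_ne_zero_of_mul hdet
  have hd : M.toBlocks₂₂.det ≠ 0 := right_ne_zero_of_mul hdet
  refine ⟨Matrix.GeneralLinearGroup.mkOfDetNeZero _ ha,
    Matrix.GeneralLinearGroup.mkOfDetNeZero _ hd, ?_, h11, ?_⟩
  · apply Units.ext
    exact hMb
  · apply Units.ext
    exact h22

theorem blk_mul_diagGL {k l : ℕ} (g : GL (Fin k ⊕ Fin l) F) (N : Matrix (Fin k) (Fin k) F)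
    (B : GL (Fin l) F) (a : GL (Fin k) F) (d : GL (Fin l) F) :
    blk (g * diagGL a d)
      (((a⁻¹ : GL (Fin k) F) : Matrix (Fin k) (Fin k) F) * N * (a : Matrix (Fin k) (Fin k) F))
      (d⁻¹ * B * d) = blk g N B := by
  unfold blk
  have h1 : ((g * diagGL a d : GL (Fin k ⊕ Fin l) F) : Matrix (Fin k ⊕ Fin l) (Fin k ⊕ Fin l) F) =
      (g : Matrix (Fin k ⊕ Fin l) (Fin k ⊕ Fin l) F) *
      Matrix.fromBlocks (a : Matrix (Fin k) (Fin k) F) 0 0 (d : Matrix (Fin l) (Fin l) F) := rfl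
  have h2 : (((g * diagGL a d)⁻¹ : GL (Fin k ⊕ Fin l) F) :
      Matrix (Fin k ⊕ Fin l) (Fin k ⊕ Fin l) F) =
      Matrix.fromBlocks ((a⁻¹ : GL (Fin k) F) : Matrix (Fin k) (Fin k) F) 0 0
        ((d⁻¹ : GL (Fin l) F) : Matrix (Fin l) (Fin l) F) *
      ((g⁻¹ : GL (Fin k ⊕ Fin l) F) : Matrix (Fin k ⊕ Fin l) (Fin k ⊕ Fin l) F) := by
    rw [_root_.mul_inv_rev]; rfl
  have h3 : Matrix.fromBlocks (a : Matrix (Fin k) (Fin k) F) 0 0 (d : Matrix (Fin l) (Fin l) F) *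
      Matrix.fromBlocks
        (((a⁻¹ : GL (Fin k) F) : Matrix (Fin k) (Fin k) F) * N * (a : Matrix (Fin k) (Fin k) F))
        0 0 ((d⁻¹ * B * d : GL (Fin l) F) : Matrix (Fin l) (Fin l) F) *
      Matrix.fromBlocks ((a⁻¹ : GL (Fin k) F) : Matrix (Fin k) (Fin k) F) 0 0
        ((d⁻¹ : GL (Fin l) F) : Matrix (Fin l) (Fin l) F) =
      Matrix.fromBlocks N 0 0 (B : Matrix (Fin l) (Fin l) F) := by
    rw [Matrix.fromBlocks_multiply, Matrix.fromBlocks_multiply]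
    simp only [Matrix.mul_zero, Matrix.zero_mul, add_zero, zero_add]
    congr 1
    · rw [← Matrix.mul_assoc, ← Matrix.mul_assoc, Units.mul_inv, Matrix.one_mul, Matrix.mul_assoc,
        Units.mul_inv, Matrix.mul_one]
    · rw [← Units.val_mul, ← Units.val_mul]
      congr 1
      group
  rw [h1, h2, ← h3]
  simp only [Matrix.mul_assoc]

/-- [P1] fibre count -/
theorem card_X_mul (k l : ℕ) :
    Nat.card (X F k l) * (glCount F k * glCount F l) =
      Nat.card (GL (Fin k ⊕ Fin l) F) * nilCount F k * glCount F l := by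
  have hex : ∀ A : X F k l, ∃ t : GL (Fin k ⊕ Fin l) F ×
      {N : Matrix (Fin k) (Fin k) F // IsNilpotent N} × GL (Fin l) F,
      blk t.1 t.2.1.1 t.2.2 = A.1 := by
    rintro ⟨A, g, N, B, hN, rfl⟩
    exact ⟨(g, ⟨N, hN⟩, B), rfl⟩
  choose s hs using hex
  have hnil : ∀ (N : {N : Matrix (Fin k) (Fin k) F // IsNilpotent N}) (a : GL (Fin k) F),
      IsNilpotent (((a⁻¹ : GL (Fin k) F) : Matrix (Fin k) (Fin k) F) * N.1 *
        (a : Matrix (Fin k) (Fin k) F)) := by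
    rintro ⟨N, m, hm⟩ a
    refine ⟨m, ?_⟩
    have : ∀ j : ℕ, (((a⁻¹ : GL (Fin k) F) : Matrix (Fin k) (Fin k) F) * N *
        (a : Matrix (Fin k) (Fin k) F)) ^ j =
        ((a⁻¹ : GL (Fin k) F) : Matrix (Fin k) (Fin k) F) * N ^ j *
        (a : Matrix (Fin k) (Fin k) F) := by
      intro j
      induction j with
      | zero => simp
      | succ j ih =>
        rw [pow_succ, ih, pow_succ]
        simp only [Matrix.mul_assoc]
        rw [← Matrix.mul_assoc (a : Matrix (Fin k) (Fin k) F), Units.mul_inv, Matrix.one_mul]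
    rw [this, hm]
    simp
  let Ψ : X F k l × (GL (Fin k) F × GL (Fin l) F) → GL (Fin k ⊕ Fin l) F ×
      {N : Matrix (Fin k) (Fin k) F // IsNilpotent N} × GL (Fin l) F :=
    fun x => ((s x.1).1 * diagGL x.2.1 x.2.2, ⟨_, hnil (s x.1).2.1 x.2.1⟩,
      x.2.2⁻¹ * (s x.1).2.2 * x.2.2)
  have hΦΨ : ∀ x, blk (Ψ x).1 (Ψ x).2.1.1 (Ψ x).2.2 = x.1.1 := by
    intro x
    rw [← hs x.1]
    exact blk_mul_diagGL _ _ _ _ _
  have hbij : Function.Bijective Ψ := by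
    constructor
    · rintro ⟨A, a, d⟩ ⟨A', a', d'⟩ hx
      have h1 : A = A' := by
        apply Subtype.ext
        have e1 := hΦΨ (A, a, d)
        have e2 := hΦΨ (A', a', d')
        rw [hx] at e1
        exact e1.symm.trans e2
      subst h1
      have h2 : (s A).1 * diagGL a d = (s A).1 * diagGL a' d' := congrArg Prod.fst hx
      obtain ⟨rfl, rfl⟩ := diagGL_injective (mul_left_cancel h2)
      rfl
    · rintro ⟨g, ⟨N, hN⟩, B⟩
      let A : X F k l := ⟨blk g N B, g, N, B, hN, rfl⟩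
      have hA : blk (s A).1 (s A).2.1.1 (s A).2.2 = blk g N B := hs A
      set g₀ := (s A).1 with hg₀
      set N₀ := (s A).2.1 with hN₀
      set B₀ := (s A).2.2 with hB₀
      have hint : ((g₀⁻¹ * g : GL (Fin k ⊕ Fin l) F) : Matrix (Fin k ⊕ Fin l) (Fin k ⊕ Fin l) F) *
          Matrix.fromBlocks N 0 0 (B : Matrix (Fin l) (Fin l) F) =
          Matrix.fromBlocks N₀.1 0 0 (B₀ : Matrix (Fin l) (Fin l) F) *
          ((g₀⁻¹ * g : GL (Fin k ⊕ Fin l) F) : Matrix (Fin k ⊕ Fin l) (Fin k ⊕ Fin l) F) := by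
        unfold blk at hA
        have e1 : ((g₀⁻¹ : GL (Fin k ⊕ Fin l) F) : Matrix (Fin k ⊕ Fin l) (Fin k ⊕ Fin l) F) *
            ((g₀ : Matrix (Fin k ⊕ Fin l) (Fin k ⊕ Fin l) F) *
              Matrix.fromBlocks N₀.1 0 0 (B₀ : Matrix (Fin l) (Fin l) F) *
              ((g₀⁻¹ : GL (Fin k ⊕ Fin l) F) : Matrix (Fin k ⊕ Fin l) (Fin k ⊕ Fin l) F)) *
            (g : Matrix (Fin k ⊕ Fin l) (Fin k ⊕ Fin l) F) =
            ((g₀⁻¹ : GL (Fin k ⊕ Fin l) F) : Matrix (Fin k ⊕ Fin l) (Fin k ⊕ Fin l) F) *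
            ((g : Matrix (Fin k ⊕ Fin l) (Fin k ⊕ Fin l) F) *
              Matrix.fromBlocks N 0 0 (B : Matrix (Fin l) (Fin l) F) *
              ((g⁻¹ : GL (Fin k ⊕ Fin l) F) : Matrix (Fin k ⊕ Fin l) (Fin k ⊕ Fin l) F)) *
            (g : Matrix (Fin k ⊕ Fin l) (Fin k ⊕ Fin l) F) := by
          rw [hA]
        simp only [Matrix.mul_assoc, Units.inv_mul, Matrix.mul_one] at e1
        rw [← Matrix.mul_assoc, Units.inv_mul, Matrix.one_mul] at e1
        rw [Units.val_mul, Matrix.mul_assoc, ← e1]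
      obtain ⟨a, d, had, haN, hdB⟩ := intertwine_diag hN N₀.2 B B₀ (g₀⁻¹ * g) hint
      refine ⟨(A, a, d), ?_⟩
      show ((s A).1 * diagGL a d, (⟨_, hnil (s A).2.1 a⟩ :
        {N : Matrix (Fin k) (Fin k) F // IsNilpotent N}), d⁻¹ * (s A).2.2 * d) = _
      rw [← hg₀, ← hB₀, ← had, mul_inv_cancel_left]
      refine Prod.ext rfl (Prod.ext ?_ ?_)
      · apply Subtype.ext
        show ((a⁻¹ : GL (Fin k) F) : Matrix (Fin k) (Fin k) F) * N₀.1 *
          (a : Matrix (Fin k) (Fin k) F) = N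
        rw [Matrix.mul_assoc, ← haN, ← Matrix.mul_assoc, Units.inv_mul, Matrix.one_mul]
      · show d⁻¹ * B₀ * d = B
        rw [mul_assoc, ← hdB, inv_mul_cancel_left]
  have hcard := Nat.card_congr (Equiv.ofBijective Ψ hbij)
  rw [Nat.card_prod, Nat.card_prod, Nat.card_prod, Nat.card_prod] at hcard
  unfold glCount nilCount
  rw [hcard, mul_assoc]

end Cfsg.Agent.Lib.Helper97.Nil
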