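import Mathlib
import Cfsg.Agent.Lib.Helper97.Nil.Defs

set_option autoImplicit false

namespace Cfsg.Agent.Lib.Helper97.Nil

open Matrix Module LinearMap

variable {F : Type*} [Field F]

/-- [P2a] existence of the Fitting decomposition in matrix form -/
theorem exists_fitting (n : ℕ) (A : Matrix (Fin n) (Fin n) F) :
    ∃ (k l : ℕ) (e : Fin k ⊕ Fin l ≃ Fin n), A.submatrix e e ∈ X F k l := by
  classical
  let φ : Module.End F (Fin n → F) := Matrix.toLin' A
  let V := ⨆ (m : ℕ), LinearMap.ker (φ ^ m)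
  let W := ⨅ (m : ℕ), LinearMap.range (φ ^ m)
  have hVW : IsCompl V W := LinearMap.isCompl_iSup_ker_pow_iInf_range_pow φ
  have hVmem : ∀ x, x ∈ V ↔ ∃ m : ℕ, (φ ^ m) x = 0 := by
    intro x
    constructor
    · intro hx
      obtain ⟨m, hm⟩ := Filter.eventually_atTop.mp <| φ.eventually_iSup_ker_pow_eq
      refine ⟨m, ?_⟩
      rw [← LinearMap.mem_ker, ← hm m le_rfl]
      exact hx
    · rintro ⟨m, hm⟩
      exact Submodule.mem_iSup_of_mem m (LinearMap.mem_ker.mpr hm)
  have hφV : ∀ x ∈ V, φ x ∈ V := by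
    intro x hx
    obtain ⟨m, hm⟩ := (hVmem x).mp hx
    refine (hVmem _).mpr ⟨m, ?_⟩
    rw [← Module.End.mul_apply, ← pow_succ, pow_succ', Module.End.mul_apply, hm, map_zero]
  have hφW : ∀ x ∈ W, φ x ∈ W := by
    simp only [W, Submodule.mem_iInf, mem_range]
    intro x H m
    obtain ⟨y, rfl⟩ := H m
    use φ y
    rw [← Module.End.mul_apply, ← pow_succ, pow_succ', Module.End.mul_apply]
  let Fr := φ.restrict hφV
  let G := φ.restrict hφW
  let ψ := Fr.prodMap G
  let e := Submodule.prodEquivOfIsCompl V W hVW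
  let bV := Module.finBasis F V
  let bW := Module.finBasis F W
  let b := bV.prod bW
  have hψ : ψ = e.symm.conj φ := by
    apply b.ext
    simp only [Basis.prod_apply, coe_inl, coe_inr, prodMap_apply, LinearEquiv.conj_apply,
      LinearEquiv.symm_symm, Submodule.coe_prodEquivOfIsCompl, coe_comp, LinearEquiv.coe_coe,
      Function.comp_apply, coprod_apply, Submodule.coe_subtype, map_add, Sum.forall, Sum.elim_inl,
      map_zero, ZeroMemClass.coe_zero, add_zero, LinearEquiv.eq_symm_apply, and_self,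
      Submodule.coe_prodEquivOfIsCompl', coe_restrict_apply, implies_true, Sum.elim_inr, zero_add,
      e, V, W, ψ, Fr, G, b]
  have hG : LinearMap.det G ≠ 0 := by
    apply ((not_hasEigenvalue_zero_tfae G).out 3 5).mpr
    intro x hx
    apply Subtype.ext
    suffices x.1 ∈ V ⊓ W by rwa [hVW.inf_eq_bot, Submodule.mem_bot] at this
    suffices x.1 ∈ V from ⟨this, x.2⟩
    refine (hVmem _).mpr ⟨1, ?_⟩
    rw [pow_one]
    rwa [Subtype.ext_iff] at hx
  have hFr : IsNilpotent Fr := by
    apply ((charpoly_nilpotent_tfae Fr).out 0 2).mpr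
    rintro ⟨x, hx⟩
    obtain ⟨m, hm⟩ := (hVmem x).mp hx
    use m
    apply Subtype.ext
    rw [ZeroMemClass.coe_zero]
    refine .trans ?_ hm
    generalize_proofs h'
    clear hm
    induction m <;> simp [pow_succ', Fr, *]
  let b' : Basis (Fin (finrank F V) ⊕ Fin (finrank F W)) F (Fin n → F) := b.map e
  let ε : Fin (finrank F V) ⊕ Fin (finrank F W) ≃ Fin n := b'.indexEquiv (Pi.basisFun F (Fin n))
  let c : Basis (Fin (finrank F V) ⊕ Fin (finrank F W)) F (Fin n → F) :=
    (Pi.basisFun F (Fin n)).reindex ε.symm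
  have hc : LinearMap.toMatrix c c φ = A.submatrix ε ε := by
    ext i j
    simp [LinearMap.toMatrix_apply, c, φ]
  have hb' : LinearMap.toMatrix b' b' φ = LinearMap.toMatrix b b ψ := by
    rw [hψ]
    ext i j
    simp [LinearMap.toMatrix_apply, b', LinearEquiv.conj_apply]
  have hblk : LinearMap.toMatrix b b ψ =
      Matrix.fromBlocks (LinearMap.toMatrix bV bV Fr) 0 0 (LinearMap.toMatrix bW bW G) :=
    LinearMap.toMatrix_prodMap bV bW Fr G
  have hN : IsNilpotent (LinearMap.toMatrix bV bV Fr) := by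
    obtain ⟨m, hm⟩ := hFr
    refine ⟨m, ?_⟩
    rw [LinearMap.toMatrix_pow, hm, map_zero]
  have hB : (LinearMap.toMatrix bW bW G).det ≠ 0 := by
    rw [LinearMap.det_toMatrix]; exact hG
  refine ⟨finrank F V, finrank F W, ε,
    ⟨c.toMatrix b', b'.toMatrix c, Basis.toMatrix_mul_toMatrix_flip _ _,
      Basis.toMatrix_mul_toMatrix_flip _ _⟩,
    LinearMap.toMatrix bV bV Fr, Matrix.GeneralLinearGroup.mkOfDetNeZero _ hB, hN, ?_⟩
  unfold blk
  show _ = c.toMatrix b' * Matrix.fromBlocks (LinearMap.toMatrix bV bV Fr) 0 0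
    (LinearMap.toMatrix bW bW G) * b'.toMatrix c
  rw [← hblk, ← hb', basis_toMatrix_mul_linearMap_toMatrix_mul_basis_toMatrix, hc]

end Cfsg.Agent.Lib.Helper97.Nil
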