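import Mathlib
import Cfsg.Agent.Lib.Helper97.Nil.Defs

set_option autoImplicit false

namespace Cfsg.Agent.Lib.Helper97.Nil

open Matrix

variable {F : Type*} [Field F]

/-- [P2b] the type is independent of the identification of the index sets -/
theorem mem_X_submatrix {k l : ℕ} (π : Fin k ⊕ Fin l ≃ Fin k ⊕ Fin l)
    {A : Matrix (Fin k ⊕ Fin l) (Fin k ⊕ Fin l) F} (hA : A ∈ X F k l) :
    A.submatrix π π ∈ X F k l := by
  obtain ⟨g, N, B, hN, rfl⟩ := hA
  have h1 : (g : Matrix (Fin k ⊕ Fin l) (Fin k ⊕ Fin l) F).submatrix π (Equiv.refl _) *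
      ((g⁻¹ : GL (Fin k ⊕ Fin l) F) : Matrix (Fin k ⊕ Fin l) (Fin k ⊕ Fin l) F).submatrix
        (Equiv.refl _) π = 1 := by
    rw [Matrix.submatrix_mul_equiv, ← Units.val_mul, mul_inv_cancel, Units.val_one,
      Matrix.submatrix_one_equiv]
  have h2 : ((g⁻¹ : GL (Fin k ⊕ Fin l) F) : Matrix (Fin k ⊕ Fin l) (Fin k ⊕ Fin l) F).submatrix
        (Equiv.refl _) π *
      (g : Matrix (Fin k ⊕ Fin l) (Fin k ⊕ Fin l) F).submatrix π (Equiv.refl _) = 1 := by
    rw [Matrix.submatrix_mul_equiv, ← Units.val_mul, inv_mul_cancel, Units.val_one,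
      Matrix.submatrix_one_equiv]
  refine ⟨⟨_, _, h1, h2⟩, N, B, hN, ?_⟩
  unfold blk
  show _ = (g : Matrix (Fin k ⊕ Fin l) (Fin k ⊕ Fin l) F).submatrix π (Equiv.refl _) *
    Matrix.fromBlocks N 0 0 (B : Matrix (Fin l) (Fin l) F) *
    ((g⁻¹ : GL (Fin k ⊕ Fin l) F) : Matrix (Fin k ⊕ Fin l) (Fin k ⊕ Fin l) F).submatrix
        (Equiv.refl _) π
  have h3 : Matrix.fromBlocks N 0 0 (B : Matrix (Fin l) (Fin l) F) =
      (Matrix.fromBlocks N 0 0 (B : Matrix (Fin l) (Fin l) F)).submatrix (Equiv.refl _)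
        (Equiv.refl _) := by
    simp
  rw [h3, Matrix.submatrix_mul_equiv, Matrix.submatrix_mul_equiv, ← h3]

theorem charpoly_of_isNilpotent {k : ℕ} {N : Matrix (Fin k) (Fin k) F} (hN : IsNilpotent N) :
    N.charpoly = Polynomial.X ^ k := by
  have h := Matrix.isNilpotent_charpoly_sub_pow_of_isNilpotent hN
  rw [Fintype.card_fin] at h
  exact sub_eq_zero.mp h.eq_zero

/-- [P2c] the charpoly determines `k` -/
theorem rootMultiplicity_of_mem_X {k l : ℕ}
    {A : Matrix (Fin k ⊕ Fin l) (Fin k ⊕ Fin l) F} (hA : A ∈ X F k l) :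
    A.charpoly.rootMultiplicity 0 = k := by
  obtain ⟨g, N, B, hN, rfl⟩ := hA
  unfold blk
  have h0 : ((g⁻¹ : GL (Fin k ⊕ Fin l) F) : Matrix (Fin k ⊕ Fin l) (Fin k ⊕ Fin l) F) =
      (g : Matrix (Fin k ⊕ Fin l) (Fin k ⊕ Fin l) F)⁻¹ := by
    simp
  rw [h0, Matrix.charpoly_units_conj, Matrix.charpoly_fromBlocks_zero₁₂,
    charpoly_of_isNilpotent hN]
  have hB : (B : Matrix (Fin l) (Fin l) F).charpoly ≠ 0 :=
    (Matrix.charpoly_monic _).ne_zero
  have hX : (Polynomial.X : Polynomial F) ^ k ≠ 0 := pow_ne_zero _ Polynomial.X_ne_zero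
  rw [Polynomial.rootMultiplicity_mul (mul_ne_zero hX hB)]
  have h1 : Polynomial.rootMultiplicity 0 ((Polynomial.X : Polynomial F) ^ k) = k := by
    have := Polynomial.rootMultiplicity_X_sub_C_pow (0 : F) k
    simpa using this
  have h2 : Polynomial.rootMultiplicity 0 (B : Matrix (Fin l) (Fin l) F).charpoly = 0 := by
    apply Polynomial.rootMultiplicity_eq_zero
    unfold Polynomial.IsRoot
    rw [Matrix.eval_charpoly]
    simp only [map_zero, zero_sub, Matrix.det_neg]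
    have hdet : (B : Matrix (Fin l) (Fin l) F).det ≠ 0 := by
      have := (Matrix.isUnit_iff_isUnit_det _).mp B.isUnit
      exact this.ne_zero
    exact mul_ne_zero (pow_ne_zero _ (by simp)) hdet
  rw [h1, h2, add_zero]

end Cfsg.Agent.Lib.Helper97.Nil
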