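import Mathlib
import Cfsg.Agent.Lib.Helper97.Nil.Defs
import Cfsg.Agent.Lib.Helper97.Nil.P2a
import Cfsg.Agent.Lib.Helper97.Nil.P2bc

set_option autoImplicit false

namespace Cfsg.Agent.Lib.Helper97.Nil

open Matrix

variable {F : Type*} [Field F]

theorem charpoly_submatrix_equiv {m n : Type*} [Fintype m] [Fintype n] [DecidableEq m]
    [DecidableEq n] (e : m ≃ n) (A : Matrix n n F) :
    (A.submatrix e e).charpoly = A.charpoly := by
  have := Matrix.charpoly_reindex e.symm A
  simpa [Matrix.reindex_apply] using this

theorem mem_X_iff {n k : ℕ} (e : Fin k ⊕ Fin (n - k) ≃ Fin n)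
    (A : Matrix (Fin n) (Fin n) F) :
    A.submatrix e e ∈ X F k (n - k) ↔ A.charpoly.rootMultiplicity 0 = k := by
  constructor
  · intro h
    rw [← charpoly_submatrix_equiv e A]
    exact rootMultiplicity_of_mem_X h
  · intro h
    obtain ⟨k', l', e', h'⟩ := exists_fitting n A
    have h1 := rootMultiplicity_of_mem_X h'
    rw [charpoly_submatrix_equiv e' A, h] at h1
    subst h1
    have h2 : k + l' = n := by
      have := Fintype.card_congr e'
      simpa using this
    have h3 : l' = n - k := by omega
    subst h3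
    have h4 : A.submatrix e e = (A.submatrix e' e').submatrix (e.trans e'.symm) (e.trans e'.symm) := by
      ext i j
      simp
    rw [h4]
    exact mem_X_submatrix _ h'

theorem rootMultiplicity_le (n : ℕ) (A : Matrix (Fin n) (Fin n) F) :
    A.charpoly.rootMultiplicity 0 ≤ n := by
  obtain ⟨k', l', e', h'⟩ := exists_fitting n A
  have h1 := rootMultiplicity_of_mem_X h'
  rw [charpoly_submatrix_equiv e' A] at h1
  have h2 : k' + l' = n := by
    have := Fintype.card_congr e'
    simpa using this
  omega

/-- [P2d] the partition of all matrices -/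
theorem sum_card_X [Fintype F] (n : ℕ) :
    ∑ k ∈ Finset.range (n + 1), Nat.card (X F k (n - k)) = Fintype.card F ^ (n * n) := by
  classical
  have h1 : Fintype.card (Matrix (Fin n) (Fin n) F) = Fintype.card F ^ (n * n) := by
    have h0 : Fintype.card (Fin n → Fin n → F) = Fintype.card F ^ (n * n) := by
      rw [Fintype.card_fun, Fintype.card_fun, Fintype.card_fin, ← pow_mul]
    rw [← h0]
    exact Fintype.card_congr (Equiv.refl _)
  rw [← h1, ← Finset.card_univ]
  rw [Finset.card_eq_sum_card_fiberwise (s := (Finset.univ : Finset (Matrix (Fin n) (Fin n) F)))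
    (t := Finset.range (n + 1)) (f := fun A => A.charpoly.rootMultiplicity 0)
    (fun A _ => Finset.mem_coe.mpr (Finset.mem_range.mpr (Nat.lt_succ_of_le (rootMultiplicity_le n A))))]
  apply Finset.sum_congr rfl
  intro k hk
  have hk' : k ≤ n := Nat.lt_succ_iff.mp (Finset.mem_range.mp hk)
  let e : Fin k ⊕ Fin (n - k) ≃ Fin n :=
    finSumFinEquiv.trans (finCongr (Nat.add_sub_cancel' hk'))
  rw [← Fintype.card_subtype, ← Nat.card_eq_fintype_card]
  refine Nat.card_congr (Equiv.subtypeEquiv (Matrix.reindex e e) ?_)
  intro A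
  have := mem_X_iff e (Matrix.reindex e e A)
  rw [← this]
  have h5 : (Matrix.reindex e e A).submatrix e e = A := by
    ext i j
    simp
  rw [h5]

end Cfsg.Agent.Lib.Helper97.Nil
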