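import Mathlib
import Cfsg.Agent.Lib.Helper97.Nil.Defs

set_option autoImplicit false

namespace Cfsg.Agent.Lib.Helper97.Nil

open Matrix

variable {F : Type*} [Field F] [Fintype F]

/-- [P3] -/
theorem card_GL_sum (k l : ℕ) : Nat.card (GL (Fin k ⊕ Fin l) F) = glCount F (k + l) := by
  unfold glCount
  exact Nat.card_congr
    (Units.mapEquiv (Matrix.reindexAlgEquiv F F (finSumFinEquiv (m := k) (n := l))).toMulEquiv).toEquiv

/-- [P3'] -/
theorem glCount_eq (n : ℕ) :
    glCount F n = ∏ i ∈ Finset.range n, (Fintype.card F ^ n - Fintype.card F ^ i) := by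
  unfold glCount
  rw [Matrix.card_GL_field, Finset.prod_range (fun i => Fintype.card F ^ n - Fintype.card F ^ i)]

end Cfsg.Agent.Lib.Helper97.Nil
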