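import Mathlib

set_option autoImplicit false

namespace Cfsg.Agent.Lib.Helper97.Nil

theorem arith_a_succ (q : ℕ) (hq : 2 ≤ q) (n : ℕ) :
    ∏ i ∈ Finset.range (n + 1), (q ^ (n + 1) - q ^ i) =
      (q ^ (n + 1) - 1) * q ^ n * ∏ i ∈ Finset.range n, (q ^ n - q ^ i) := by
  rw [Finset.prod_range_succ']
  have h : ∀ i ∈ Finset.range n, q ^ (n + 1) - q ^ (i + 1) = q * (q ^ n - q ^ i) := by
    intro i _
    rw [Nat.mul_sub, pow_succ, pow_succ, mul_comm, mul_comm (q ^ i)]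
  rw [Finset.prod_congr rfl h, Finset.prod_mul_distrib, Finset.prod_const, Finset.card_range]
  simp only [pow_zero]
  ring

theorem arith_a_pos (q : ℕ) (hq : 2 ≤ q) (n : ℕ) :
    0 < ∏ i ∈ Finset.range n, (q ^ n - q ^ i) := by
  apply Finset.prod_pos
  intro i hi
  have : q ^ i < q ^ n := Nat.pow_lt_pow_right (by omega) (Finset.mem_range.mp hi)
  omega

theorem arith_sum (q : ℕ) (hq : 2 ≤ q) (a : ℕ → ℕ)
    (ha : ∀ n, a n = ∏ i ∈ Finset.range n, (q ^ n - q ^ i)) (n : ℕ) :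
    ∑ k ∈ Finset.range (n + 1), ((q : ℚ) ^ (k * (k - 1))) / (a k : ℚ) = (q : ℚ) ^ (n * n) / (a n : ℚ) := by
  have hpos : ∀ n, (0 : ℚ) < (a n : ℚ) := by
    intro n
    rw [ha]
    exact_mod_cast arith_a_pos q hq n
  induction n with
  | zero => simp
  | succ n ih =>
    rw [Finset.sum_range_succ, ih]
    have h1 : (a (n + 1) : ℚ) = ((q : ℚ) ^ (n + 1) - 1) * (q : ℚ) ^ n * (a n : ℚ) := by
      rw [ha (n + 1), arith_a_succ q hq n, ← ha n]
      have : 1 ≤ q ^ (n + 1) := Nat.one_le_pow _ _ (by omega)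
      push_cast [this]
      ring
    have h2 := hpos n
    have h3 := hpos (n + 1)
    rw [div_add_div _ _ h2.ne' h3.ne', div_eq_div_iff (mul_pos h2 h3).ne' h3.ne']
    rw [h1]
    simp only [Nat.add_sub_cancel]
    ring

/-- [P4] pure arithmetic -/
theorem arith (q : ℕ) (hq : 2 ≤ q) (a N : ℕ → ℕ) (c : ℕ → ℕ → ℕ)
    (ha : ∀ n, a n = ∏ i ∈ Finset.range n, (q ^ n - q ^ i))
    (hc : ∀ n k, k ≤ n → c n k * (a k * a (n - k)) = a n * N k * a (n - k))
    (hs : ∀ n, ∑ k ∈ Finset.range (n + 1), c n k = q ^ (n * n)) :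
    ∀ n, N n = q ^ (n * (n - 1)) := by
  have hposN : ∀ n, 0 < a n := by
    intro n
    rw [ha]
    exact arith_a_pos q hq n
  have hpos : ∀ n, (0 : ℚ) < (a n : ℚ) := fun n => by exact_mod_cast hposN n
  have hc' : ∀ n k, k ≤ n → (c n k : ℚ) = (a n : ℚ) * ((N k : ℚ) / (a k : ℚ)) := by
    intro n k hk
    have h := hc n k hk
    have h' : c n k * a k = a n * N k := by
      apply Nat.eq_of_mul_eq_mul_right (hposN (n - k))
      rw [← h]; ring
    have h'' : (c n k : ℚ) * (a k : ℚ) = (a n : ℚ) * (N k : ℚ) := by exact_mod_cast h'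
    rw [← mul_div_assoc, eq_div_iff (hpos k).ne', h'']
  intro n
  induction n using Nat.strong_induction_on with
  | _ n ih =>
    have h1 : (∑ k ∈ Finset.range (n + 1), (c n k : ℚ)) = (q : ℚ) ^ (n * n) := by
      exact_mod_cast hs n
    have h2 := arith_sum q hq a ha n
    rw [Finset.sum_range_succ] at h1 h2
    have h3 : ∑ k ∈ Finset.range n, (c n k : ℚ) =
        (a n : ℚ) * ∑ k ∈ Finset.range n, ((q : ℚ) ^ (k * (k - 1))) / (a k : ℚ) := by
      rw [Finset.mul_sum]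
      apply Finset.sum_congr rfl
      intro k hk
      have hk' := Finset.mem_range.mp hk
      rw [hc' n k hk'.le, ih k hk']
      push_cast
      rfl
    rw [h3, hc' n n le_rfl] at h1
    have h4 : (N n : ℚ) = (q : ℚ) ^ (n * (n - 1)) := by
      have hne := (hpos n).ne'
      have h5 : (a n : ℚ) * (∑ k ∈ Finset.range n, ((q : ℚ) ^ (k * (k - 1))) / (a k : ℚ) +
          (q : ℚ) ^ (n * (n - 1)) / (a n : ℚ)) = (q : ℚ) ^ (n * n) := by
        rw [h2]; field_simp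
      have h6 : (a n : ℚ) * ((N n : ℚ) / (a n : ℚ)) = (a n : ℚ) * ((q : ℚ) ^ (n * (n - 1)) / (a n : ℚ)) := by
        linarith [h1, h5, mul_add (a n : ℚ) (∑ k ∈ Finset.range n, ((q : ℚ) ^ (k * (k - 1))) / (a k : ℚ)) ((q : ℚ) ^ (n * (n - 1)) / (a n : ℚ))]
      have h7 := mul_left_cancel₀ hne h6
      field_simp at h7
      exact h7
    exact_mod_cast h4

end Cfsg.Agent.Lib.Helper97.Nil
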