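import Mathlib
import Cfsg.Agent.Lib.Helper97.Nil.Defs

set_option autoImplicit false

namespace Cfsg.Agent.Lib.Helper97.Nil

open Matrix

variable {F : Type*} [Field F]

theorem sub_one_pow_aux (p : ℕ) [Fact p.Prime] [CharP F p] (n : ℕ)
    (A : Matrix (Fin n) (Fin n) F) (k : ℕ) : (A - 1) ^ p ^ k = A ^ p ^ k - 1 := by
  rcases n with _ | n
  · exact Subsingleton.elim _ _
  · rw [sub_pow_char_pow_of_commute p k (Commute.one_right A), one_pow]

/-- [P5] unipotent = 1 + nilpotent -/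
theorem card_unipotent (p : ℕ) [Fact p.Prime] [CharP F p] (n : ℕ) :
    Nat.card {g : Matrix.GeneralLinearGroup (Fin n) F // ∃ k : ℕ, orderOf g = p ^ k} =
      nilCount F n := by
  unfold nilCount
  have hf : ∀ g : {g : Matrix.GeneralLinearGroup (Fin n) F // ∃ k : ℕ, orderOf g = p ^ k},
      IsNilpotent ((g.1 : Matrix (Fin n) (Fin n) F) - 1) := by
    rintro ⟨g, k, hk⟩
    refine ⟨p ^ k, ?_⟩
    rw [sub_one_pow_aux]
    have h : g ^ p ^ k = 1 := by rw [← hk]; exact pow_orderOf_eq_one g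
    have h' : (g : Matrix (Fin n) (Fin n) F) ^ p ^ k = 1 := by
      rw [← Units.val_pow_eq_pow_val, h]; rfl
    simp only [h', sub_self]
  refine Nat.card_congr (Equiv.ofBijective
    (fun g => (⟨(g.1 : Matrix (Fin n) (Fin n) F) - 1, hf g⟩ :
      {A : Matrix (Fin n) (Fin n) F // IsNilpotent A})) ⟨?_, ?_⟩)
  · intro g h hgh
    have h1 : (g.1 : Matrix (Fin n) (Fin n) F) - 1 = (h.1 : Matrix (Fin n) (Fin n) F) - 1 :=
      congrArg Subtype.val hgh
    apply Subtype.ext
    apply Units.ext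
    exact sub_left_injective h1
  · rintro ⟨N, hN⟩
    obtain ⟨u, hu⟩ := hN.isUnit_add_one
    obtain ⟨m, hm⟩ := hN
    have hp : 1 < p := (Fact.out : p.Prime).one_lt
    have hmp : m ≤ p ^ m := (Nat.lt_pow_self hp).le
    have hNp : N ^ p ^ m = 0 := pow_eq_zero_of_le hmp hm
    have h1 : (u : Matrix (Fin n) (Fin n) F) ^ p ^ m = 1 := by
      have := sub_one_pow_aux p n (u : Matrix (Fin n) (Fin n) F) m
      rw [hu, add_sub_cancel_right, hNp] at this
      rw [hu]
      exact (sub_eq_zero.mp this.symm)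
    have h2 : u ^ p ^ m = 1 := by
      apply Units.ext
      rw [Units.val_pow_eq_pow_val, h1]; rfl
    have h3 : orderOf u ∣ p ^ m := orderOf_dvd_of_pow_eq_one h2
    obtain ⟨j, _, hj⟩ := (Nat.dvd_prime_pow (Fact.out : p.Prime)).mp h3
    refine ⟨⟨u, j, hj⟩, ?_⟩
    apply Subtype.ext
    show (u : Matrix (Fin n) (Fin n) F) - 1 = N
    rw [hu, add_sub_cancel_right]

end Cfsg.Agent.Lib.Helper97.Nil
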