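import Mathlib
import Cfsg.Agent.Lib.Helper97.Nil.Defs
import Cfsg.Agent.Lib.Helper97.Nil.P1
import Cfsg.Agent.Lib.Helper97.Nil.P2d
import Cfsg.Agent.Lib.Helper97.Nil.P3
import Cfsg.Agent.Lib.Helper97.Nil.P4
import Cfsg.Agent.Lib.Helper97.Nil.P5

/-!
# Fine–Herstein: the number of nilpotent `n × n` matrices over `F_q` is `q ^ (n (n - 1))`
-/

set_option autoImplicit false

namespace Cfsg.Agent.Lib.Helper97.Nil

open Matrix

variable {F : Type*} [Field F] [Fintype F]

theorem nilCount_eq (n : ℕ) : nilCount F n = Fintype.card F ^ (n * (n - 1)) := by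
  refine arith (Fintype.card F) Fintype.one_lt_card (glCount F) (nilCount F)
    (fun n k => Nat.card (X F k (n - k))) glCount_eq ?_ sum_card_X n
  intro n k hk
  have h := card_X_mul (F := F) k (n - k)
  rw [card_GL_sum, Nat.add_sub_cancel' hk] at h
  exact h

end Cfsg.Agent.Lib.Helper97.Nil
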